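import Cfsg.Agent.GeoClasses.SympMax
import Cfsg.Agent.Forms.Quadratic

/-!
A skew square root of a non-square on a symplectic space: hermitian tools.
-/

set_option autoImplicit false

namespace Cfsg.Agent.MaxSub.Overfield

open Matrix Module Cfsg.Agent.Forms Cfsg.Agent.ClassicalMax Cfsg.Agent.GeoClasses
open scoped MatrixGroups Matrix

variable {F : Type*} [Field F] {m : ℕ}

local notation "V" => (Fin m ⊕ Fin m → F)
local notation "β" => sympBil m F
local notation "mat[" g "]" =>
  ((g : GL (Fin m ⊕ Fin m) F) : Matrix (Fin m ⊕ Fin m) (Fin m ⊕ Fin m) F)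

/-- An overfield structure: `Jo ^ 2 = ν`, a non-square, and `Jo` is skew. -/
structure Str (Jo : (Fin m ⊕ Fin m → F) →ₗ[F] (Fin m ⊕ Fin m → F)) (ν : F) : Prop where
  two : (2 : F) ≠ 0
  nsq : ∀ x : F, x * x ≠ ν
  sq : ∀ x, Jo (Jo x) = ν • x
  skew : ∀ x y, sympBil m F (Jo x) y = - sympBil m F x (Jo y)

/-- `x ↦ h(x, y) u`. -/
noncomputable def proj (Jo : V →ₗ[F] V) (y u : V) : V →ₗ[F] V :=
  ((β).flip (Jo y)).smulRight u - ((β).flip y).smulRight (Jo u)

lemma proj_apply (Jo : V →ₗ[F] V) (y u x : V) :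
    proj Jo y u x = β x (Jo y) • u - β x y • Jo u := rfl

namespace Str

variable {Jo : (Fin m ⊕ Fin m → F) →ₗ[F] (Fin m ⊕ Fin m → F)} {ν : F} (hJ : Str Jo ν)
include hJ

lemma nu_ne : ν ≠ 0 := fun h => hJ.nsq 0 (by rw [h, mul_zero])

lemma J_ne {x : V} (hx : x ≠ 0) : Jo x ≠ 0 := fun h => by
  have := hJ.sq x
  rw [h, map_zero] at this
  rcases smul_eq_zero.1 this.symm with h' | h'
  · exact hJ.nu_ne h'
  · exact hx h'

lemma S_symm (x y : V) : β x (Jo y) = β y (Jo x) := by
  rw [spB_swap (Jo x) y, hJ.skew, neg_neg]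

lemma J_J (x y : V) : β (Jo x) (Jo y) = -ν * β x y := by
  rw [hJ.skew, hJ.sq, map_smul, smul_eq_mul, neg_mul]

lemma J_left (x y : V) : β (Jo x) y = - β y (Jo x) := spB_swap y (Jo x)

lemma norm_ne {a b : F} (h : a ≠ 0 ∨ b ≠ 0) : a * a - ν * (b * b) ≠ 0 := by
  intro e
  by_cases hb : b = 0
  · subst hb
    simp at e
    simp [e] at h
  · exact hJ.nsq (a / b) (by field_simp; linear_combination e)

lemma one_sub_ne : ν - 1 ≠ 0 := fun h => hJ.nsq 1 (by rw [mul_one]; exact (sub_eq_zero.1 h).symm)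

/-- The quadratic form `x ↦ β x (Jo x)`. -/
lemma expand (x y : V) (t : F) :
    β (x + t • y) (Jo (x + t • y)) =
      β x (Jo x) + 2 * t * β x (Jo y) + t * t * β y (Jo y) := by
  simp only [map_add, map_smul, LinearMap.add_apply, LinearMap.smul_apply, smul_eq_mul,
    hJ.S_symm y x]
  ring

/-- A singular vector orthogonal to given vectors, outside their span. -/
lemma exists_singular_perp [Finite F] (hm : 6 ≤ m) (U : Submodule F V)
    (hU : finrank F U ≤ 4) :
    ∃ e, (∀ x ∈ U, β x e = 0) ∧ e ∉ U ∧ β e (Jo e) = 0 := by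
  obtain ⟨C, hC⟩ := U.exists_isCompl
  let X : Submodule F V := LinearMap.BilinForm.orthogonal β U ⊓ C
  have h1 : finrank F (LinearMap.BilinForm.orthogonal β U) = finrank F V - finrank F U :=
    LinearMap.BilinForm.finrank_orthogonal sympBil_nondegenerate U
  have h2 := Submodule.finrank_add_eq_of_isCompl hC
  have h3 := Submodule.finrank_sup_add_finrank_inf_eq (LinearMap.BilinForm.orthogonal β U) C
  have h4 := Submodule.finrank_le (LinearMap.BilinForm.orthogonal β U ⊔ C)
  have hV : finrank F V = m + m := by simp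
  obtain ⟨e, he, he0, heq⟩ := Forms.exists_singular_vector_of_three_le
    (LinearMap.BilinMap.toQuadraticMap ((β).compl₂ Jo)) (S := X) (by
      show 3 ≤ finrank F ↥(LinearMap.BilinForm.orthogonal β U ⊓ C)
      omega)
  refine ⟨e, he.1, fun heU => he0 ?_, heq⟩
  exact (Submodule.disjoint_def.1 hC.disjoint) e heU he.2

/-- A singular vector with two prescribed non-zero products. -/
lemma exists_singular_two [Finite F] (hm : 6 ≤ m) {u y : V} (hu : u ≠ 0) (hy : y ≠ 0) :
    ∃ p, β p (Jo p) = 0 ∧ β p u ≠ 0 ∧ β p y ≠ 0 := by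
  obtain ⟨e, he, heU, heq⟩ := hJ.exists_singular_perp hm
    (Submodule.span F ({u, y, Jo u, Jo y} : Set V)) (by
      classical
      have e : ({u, y, Jo u, Jo y} : Set V) = (({u, y, Jo u, Jo y} : Finset V) : Set V) := by simp
      rw [e]
      have h0 := finrank_span_finset_le_card (R := F) ({u, y, Jo u, Jo y} : Finset V)
      have h1 := Finset.card_insert_le u ({y, Jo u, Jo y} : Finset V)
      have h2 := Finset.card_insert_le y ({Jo u, Jo y} : Finset V)
      have h3 := Finset.card_insert_le (Jo u) ({Jo y} : Finset V)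
      rw [Finset.card_singleton] at h3
      unfold Set.finrank at h0
      omega)
  have ht : ∀ w ∈ ({u, y, Jo u, Jo y} : Set V), β w e = 0 := fun w hw =>
    he w (Submodule.subset_span hw)
  obtain ⟨x, -, hxu, hxy⟩ := exists_ne_zero_of_two (S := (⊤ : Submodule F V))
    (φ := (β).flip u) (ψ := (β).flip y)
    (by
      by_contra hcon
      push Not at hcon
      exact hu (sympBil_nondegenerate.2 u fun s => hcon s trivial))
    (by
      by_contra hcon
      push Not at hcon
      exact hy (sympBil_nondegenerate.2 y fun s => hcon s trivial))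
  -- make `x` non-orthogonal to `Jo e`
  obtain ⟨x, hxu, hxy, hxe⟩ : ∃ x, β x u ≠ 0 ∧ β x y ≠ 0 ∧ β x (Jo e) ≠ 0 := by
    by_cases hxe : β x (Jo e) = 0
    swap
    · exact ⟨x, hxu, hxy, hxe⟩
    obtain ⟨d, hd, hde⟩ : ∃ d ∈ LinearMap.BilinForm.orthogonal β (Submodule.span F ({u, y} : Set V)),
        β d (Jo e) ≠ 0 := by
      by_contra hcon
      push Not at hcon
      have hmem : Jo e ∈ LinearMap.BilinForm.orthogonal β
          (LinearMap.BilinForm.orthogonal β (Submodule.span F ({u, y} : Set V))) :=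
        fun d hd => hcon d hd
      rw [LinearMap.BilinForm.orthogonal_orthogonal sympBil_nondegenerate spB_isRefl,
        Submodule.mem_span_pair] at hmem
      obtain ⟨a, b, hab⟩ := hmem
      apply heU
      have h := congrArg Jo hab.symm
      rw [hJ.sq, map_add, map_smul, map_smul] at h
      have : e = ν⁻¹ • (a • Jo u + b • Jo y) := by
        rw [← h, smul_smul, inv_mul_cancel₀ hJ.nu_ne, one_smul]
      rw [this]
      exact Submodule.smul_mem _ _ (add_mem
        (Submodule.smul_mem _ _ (Submodule.subset_span (by simp)))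
        (Submodule.smul_mem _ _ (Submodule.subset_span (by simp))))
    have hdu : β d u = 0 := by
      rw [spB_swap u d, show β u d = 0 from hd u (Submodule.subset_span (by simp)), neg_zero]
    have hdy : β d y = 0 := by
      rw [spB_swap y d, show β y d = 0 from hd y (Submodule.subset_span (by simp)), neg_zero]
    refine ⟨x + d, ?_, ?_, ?_⟩
    · simpa [hdu] using hxu
    · simpa [hdy] using hxy
    · simpa [show β x (Jo e) = 0 from hxe] using hde
  refine ⟨x + (-(β x (Jo x)) / (2 * β x (Jo e))) • e, ?_, ?_, ?_⟩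
  · rw [hJ.expand, heq]
    have := hJ.two
    field_simp
    ring
  · rw [map_add, map_smul, LinearMap.add_apply, LinearMap.smul_apply, spB_swap u e, ht u (by simp),
      neg_zero, smul_zero, add_zero]
    exact hxu
  · rw [map_add, map_smul, LinearMap.add_apply, LinearMap.smul_apply, spB_swap y e, ht y (by simp),
      neg_zero, smul_zero, add_zero]
    exact hxy

/-- A singular vector with non-zero hermitian product to a given partner, orthogonal to `c`. -/
lemma exists_partner {u c : V} (hu : u ≠ 0) (hq : β u (Jo u) = 0)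
    (huc : ∀ a b : F, u ≠ a • c + b • Jo c) (hcu : β c u = 0) (hcJu : β c (Jo u) = 0) :
    ∃ u', β u' (Jo u') = 0 ∧ β u u' = 0 ∧ β u (Jo u') = 1 ∧ β c u' = 0 ∧ β c (Jo u') = 0 := by
  obtain ⟨y, hy, hyu⟩ : ∃ y ∈ LinearMap.BilinForm.orthogonal β
      (Submodule.span F ({c, Jo c, u} : Set V)), β (Jo u) y ≠ 0 := by
    by_contra hcon
    push Not at hcon
    have hmem : Jo u ∈ LinearMap.BilinForm.orthogonal β
        (LinearMap.BilinForm.orthogonal β (Submodule.span F ({c, Jo c, u} : Set V))) :=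
      fun d hd => by
        show β d (Jo u) = 0
        rw [spB_swap (Jo u) d, hcon d hd, neg_zero]
    rw [LinearMap.BilinForm.orthogonal_orthogonal sympBil_nondegenerate spB_isRefl,
      Submodule.mem_span_triple] at hmem
    obtain ⟨a, b, d, hab⟩ := hmem
    -- `(Jo - d) u = a c + b Jo c`
    have h1 := congrArg Jo hab.symm
    rw [hJ.sq, map_add, map_add, map_smul, map_smul, map_smul, hJ.sq, ← hab] at h1
    have hN : ν - d * d ≠ 0 := fun h => hJ.nsq d (sub_eq_zero.1 h).symm
    refine huc ((b * ν + d * a) / (ν - d * d)) ((a + d * b) / (ν - d * d)) ?_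
    have h2 : (ν - d * d) • u = (b * ν + d * a) • c + (a + d * b) • Jo c := by
      linear_combination (norm := module) h1
    have h3 := congrArg (fun z => (ν - d * d)⁻¹ • z) h2
    simp only [smul_smul, inv_mul_cancel₀ hN, one_smul, smul_add] at h3
    rw [div_eq_inv_mul, div_eq_inv_mul]
    exact h3
  have hc : β c y = 0 := hy c (Submodule.subset_span (by simp))
  have hJc : β (Jo c) y = 0 := hy (Jo c) (Submodule.subset_span (by simp))
  have huy : β u y = 0 := hy u (Submodule.subset_span (by simp))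
  set k := -(β (Jo u) y) with hk
  have hk0 : k ≠ 0 := neg_ne_zero.2 hyu
  obtain ⟨z, hz⟩ : ∃ z, z = k⁻¹ • y := ⟨_, rfl⟩
  have e1 : β u z = 0 := by simp [hz, huy]
  have e2 : β u (Jo z) = 1 := by
    rw [← neg_inj, ← hJ.skew, hz, map_smul, smul_eq_mul, show β (Jo u) y = -k by rw [hk, neg_neg],
      mul_neg, inv_mul_cancel₀ hk0]
  have e3 : β c z = 0 := by simp [hz, hc]
  have e4 : β c (Jo z) = 0 := by
    rw [← neg_eq_zero, ← hJ.skew, hz, map_smul, hJc, smul_zero]
  have e5 : β z (Jo u) = 1 := by rw [← hJ.S_symm]; exact e2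
  refine ⟨z + (-(β z (Jo z)) / 2) • u, ?_, ?_, ?_, ?_, ?_⟩
  · rw [hJ.expand, hq, e5]
    have := hJ.two
    field_simp
    ring
  · rw [map_add, map_smul, e1, sympBil_isAlt.self_eq_zero, smul_zero, add_zero]
  · rw [map_add, map_smul, map_add, map_smul, e2, hq, smul_zero, add_zero]
  · rw [map_add, map_smul, e3, hcu, smul_zero, add_zero]
  · rw [map_add, map_smul, map_add, map_smul, e4, hcJu, smul_zero, add_zero]

end Str

/-- A group element from an isometric linear map commuting with `Jo`. -/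
lemma exists_gl {M : Subgroup (GL (Fin m ⊕ Fin m) F)} {Jo : V →ₗ[F] V}
    (hM : ∀ g ∈ Cfsg.spGL m F, (∀ x, mat[g] *ᵥ Jo x = Jo (mat[g] *ᵥ x)) → g ∈ M)
    (f : V →ₗ[F] V) (hf : ∀ x y, β (f x) (f y) = β x y) (hfJ : ∀ x, f (Jo x) = Jo (f x)) :
    ∃ g ∈ M, g ∈ Cfsg.spGL m F ∧ ∀ x, mat[g] *ᵥ x = f x := by
  have hA : LinearMap.toMatrix' f ∈ Matrix.symplecticGroup (Fin m) F := by
    rw [Forms.mem_symplecticGroup_iff_sympForm]
    intro u v
    rw [LinearMap.toMatrix'_mulVec, LinearMap.toMatrix'_mulVec, ← sympBil_apply, ← sympBil_apply]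
    exact hf u v
  refine ⟨(Linear.Symp.toSpGL (F := F) (m := m) ⟨_, hA⟩ : GL (Fin m ⊕ Fin m) F), ?_,
    (Linear.Symp.toSpGL (F := F) (m := m) ⟨_, hA⟩).2, fun x => LinearMap.toMatrix'_mulVec f x⟩
  refine hM _ (Linear.Symp.toSpGL (F := F) (m := m) ⟨_, hA⟩).2 fun x => ?_
  show LinearMap.toMatrix' f *ᵥ Jo x = Jo (LinearMap.toMatrix' f *ᵥ x)
  rw [LinearMap.toMatrix'_mulVec, LinearMap.toMatrix'_mulVec, hfJ]

end Cfsg.Agent.MaxSub.Overfield
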