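import Cfsg.Agent.MaxSub.Overfield.Basic
import Cfsg.Agent.GeoClasses.FieldFacts

/-!
Overgroups of the normaliser of a skew quadratic overfield in the symplectic group.
-/

set_option autoImplicit false

namespace Cfsg.Agent.MaxSub.Overfield

open Matrix Module Cfsg.Agent.Forms Cfsg.Agent.ClassicalMax Cfsg.Agent.GeoClasses
open scoped MatrixGroups Matrix

variable {F : Type*} [Field F] {m : ℕ}

local notation "V" => (Fin m ⊕ Fin m → F)
local notation "β" => sympBil m F
local notation "mat[" g "]" =>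
  ((g : GL (Fin m ⊕ Fin m) F) : Matrix (Fin m ⊕ Fin m) (Fin m ⊕ Fin m) F)

/-- The standing hypotheses on an overgroup. -/
structure Over (Jo : (Fin m ⊕ Fin m → F) →ₗ[F] (Fin m ⊕ Fin m → F)) (ν : F)
    (M : Subgroup (GL (Fin m ⊕ Fin m) F)) : Prop where
  str : Str Jo ν
  le : M ≤ Cfsg.spGL m F
  commute : ∀ g ∈ Cfsg.spGL m F,
    (∀ x, mat[g] *ᵥ Jo x = Jo (mat[g] *ᵥ x)) → g ∈ M

/-- The two-parameter product of transvections. -/
noncomputable def pair (a b : Fin m ⊕ Fin m → F) (c d : F) : GL (Fin m ⊕ Fin m) F :=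
  spTau a c * spTau b d

lemma pair_apply {a b : Fin m ⊕ Fin m → F} (hab : sympBil m F a b = 0) (c d : F)
    (x : Fin m ⊕ Fin m → F) :
    mat[pair a b c d] *ᵥ x = x + (c * sympBil m F x a) • a + (d * sympBil m F x b) • b := by
  have hba : sympBil m F b a = 0 := by rw [spB_swap a b, hab, neg_zero]
  rw [pair, Units.val_mul, ← Matrix.mulVec_mulVec, spTau_apply, spTau_apply]
  simp only [map_add, map_smul, LinearMap.add_apply, LinearMap.smul_apply, hba, smul_zero, add_zero]
  abel

lemma conj_spTau {g : GL (Fin m ⊕ Fin m) F} (hg : g ∈ Cfsg.spGL m F) (v : Fin m ⊕ Fin m → F)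
    (c : F) : g * spTau v c * g⁻¹ = spTau (mat[g] *ᵥ v) c := by
  refine gl_ext_mulVec fun x => ?_
  have := mem_spGL_iff.1 hg (((g⁻¹ : GL (Fin m ⊕ Fin m) F) : Matrix _ _ F) *ᵥ x) v
  rw [mulVec_inv_cancel] at this
  simp only [Units.val_mul, ← Matrix.mulVec_mulVec, spTau_apply, Matrix.mulVec_add,
    Matrix.mulVec_smul, mulVec_inv_cancel, this]

lemma conj_pair {g : GL (Fin m ⊕ Fin m) F} (hg : g ∈ Cfsg.spGL m F) (a b : Fin m ⊕ Fin m → F)
    (c d : F) : g * pair a b c d * g⁻¹ = pair (mat[g] *ᵥ a) (mat[g] *ᵥ b) c d := by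
  rw [pair, pair, ← conj_spTau hg a c, ← conj_spTau hg b d]
  group

lemma spTau_zero' (v : Fin m ⊕ Fin m → F) : spTau v (0 : F) = 1 :=
  gl_ext_mulVec fun x => by simp [spTau_apply]

lemma spTau_add' (v : Fin m ⊕ Fin m → F) (c d : F) : spTau v (c + d) = spTau v c * spTau v d :=
  gl_ext_mulVec fun x => by
    simp only [Units.val_mul, ← Matrix.mulVec_mulVec, spTau_apply, map_add, map_smul,
      LinearMap.add_apply, LinearMap.smul_apply, sympBil_isAlt.self_eq_zero, smul_zero, add_zero,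
      mul_add, add_mul, add_smul]
    abel

lemma spTau_comm {a b : Fin m ⊕ Fin m → F} (hab : sympBil m F a b = 0) (c d : F) :
    Commute (spTau a c) (spTau b d) :=
  gl_ext_mulVec fun x => by
    have hba : sympBil m F b a = 0 := by rw [spB_swap a b, hab, neg_zero]
    simp only [Units.val_mul, ← Matrix.mulVec_mulVec, spTau_apply, map_add, map_smul,
      LinearMap.add_apply, LinearMap.smul_apply, hab, hba, smul_zero, add_zero]
    abel

lemma spTau_scale (v : Fin m ⊕ Fin m → F) (a c : F) : spTau (a • v) c = spTau v (a * a * c) :=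
  gl_ext_mulVec fun x => by
    simp only [spTau_apply, map_smul, smul_eq_mul, smul_smul]
    congr 2
    ring

/-- The braid relation of two transvections. -/
lemma spTau_braid {a b : Fin m ⊕ Fin m → F} (hab : sympBil m F a b = 1) {s t : F}
    (hst : s * t = 1) :
    spTau a s * spTau b t * spTau a s = spTau b t * spTau a s * spTau b t :=
  gl_ext_mulVec fun x => by
    have hba : sympBil m F b a = -1 := by rw [spB_swap a b, hab]
    simp only [Units.val_mul, ← Matrix.mulVec_mulVec, spTau_apply, map_add, map_smul,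
      LinearMap.add_apply, LinearMap.smul_apply, hab, hba, sympBil_isAlt.self_eq_zero, smul_eq_mul]
    linear_combination (norm := module)
      hst • (-(s * sympBil m F x a) • a + (t * sympBil m F x b) • b)

namespace Over

variable {Jo : (Fin m ⊕ Fin m → F) →ₗ[F] (Fin m ⊕ Fin m → F)} {ν : F}
  {M : Subgroup (GL (Fin m ⊕ Fin m) F)} (hO : Over Jo ν M)
include hO

/-- The root group of a singular vector. -/
lemma root_mem {u : Fin m ⊕ Fin m → F} (hu : sympBil m F u (Jo u) = 0) (t : F) :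
    pair (Jo u) u t (-(ν * t)) ∈ M := by
  have hab : sympBil m F (Jo u) u = 0 := by rw [spB_swap u (Jo u), hu, neg_zero]
  refine hO.commute _ (mul_mem (spTau_mem _ _) (spTau_mem _ _)) fun x => ?_
  rw [pair_apply hab, pair_apply hab, map_add, map_add, map_smul, map_smul, hO.str.sq,
    hO.str.J_J, hO.str.skew x u]
  linear_combination (norm := module) (0 : F) • (Jo x)

/-- Multiplication by `a + b Jo` on the line of a singular vector, fixing `c`. -/
lemma exists_rot {u u' c : Fin m ⊕ Fin m → F} (hu : sympBil m F u (Jo u) = 0)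
    (hu' : sympBil m F u' (Jo u') = 0) (h0 : sympBil m F u u' = 0)
    (h1 : sympBil m F u (Jo u') = 1) (hc1 : sympBil m F c u = 0)
    (hc2 : sympBil m F c (Jo u) = 0) (hc3 : sympBil m F c u' = 0)
    (hc4 : sympBil m F c (Jo u') = 0) {a b : F} (hab : a * a - ν * (b * b) ≠ 0) :
    ∃ g ∈ M, g ∈ Cfsg.spGL m F ∧ mat[g] *ᵥ u = a • u + b • Jo u ∧ mat[g] *ᵥ c = c := by
  have hJ := hO.str
  set D := a * a - ν * (b * b) with hD
  have h1' : sympBil m F u' (Jo u) = 1 := by rw [hJ.S_symm]; exact h1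
  have h0' : sympBil m F u' u = 0 := by rw [spB_swap u u', h0, neg_zero]
  let P₁ := proj Jo u' u
  let P₂ := proj Jo u u'
  let f : (Fin m ⊕ Fin m → F) →ₗ[F] (Fin m ⊕ Fin m → F) :=
    LinearMap.id + ((a - 1) • P₁ + b • (Jo ∘ₗ P₁)) + ((a / D - 1) • P₂ + (b / D) • (Jo ∘ₗ P₂))
  have hf : ∀ x, f x = x + ((a - 1) • P₁ x + b • Jo (P₁ x)) +
      ((a / D - 1) • P₂ x + (b / D) • Jo (P₂ x)) := fun x => rfl
  have hiso : ∀ x y, sympBil m F (f x) (f y) = sympBil m F x y := by
    intro x y
    simp only [hf, P₁, P₂, proj_apply, map_add, map_sub, map_smul, LinearMap.add_apply,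
      LinearMap.sub_apply, LinearMap.smul_apply, smul_eq_mul, hJ.J_J, hJ.J_left, hJ.sq, hu, hu',
      h0, h0', h1, h1', sympBil_isAlt.self_eq_zero, spB_swap y u, spB_swap y u',
      spB_swap y (Jo u), spB_swap y (Jo u')]
    field_simp
    rw [hD]
    ring
  have hfJ : ∀ x, f (Jo x) = Jo (f x) := by
    intro x
    simp only [hf, P₁, P₂, proj_apply, map_add, map_sub, map_smul, smul_sub, hJ.sq, hJ.J_J,
      hJ.skew]
    module
  obtain ⟨g, hgM, hgs, hg⟩ := exists_gl hO.commute f hiso hfJ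
  refine ⟨g, hgM, hgs, ?_, ?_⟩
  · rw [hg, hf]
    simp only [P₁, P₂, proj_apply, h0, h1, hu, sympBil_isAlt.self_eq_zero]
    simp [map_zero]
    module
  · rw [hg, hf]
    simp [P₁, P₂, proj_apply, hc1, hc2, hc3, hc4]

/-- Exchange of a hyperbolic pair. -/
lemma exists_swap {u u' : Fin m ⊕ Fin m → F} (hu : sympBil m F u (Jo u) = 0)
    (hu' : sympBil m F u' (Jo u') = 0) (h0 : sympBil m F u u' = 0)
    (h1 : sympBil m F u (Jo u') = 1) :
    ∃ g ∈ M, g ∈ Cfsg.spGL m F ∧ mat[g] *ᵥ u = u' := by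
  have hJ := hO.str
  have h1' : sympBil m F u' (Jo u) = 1 := by rw [hJ.S_symm]; exact h1
  have h0' : sympBil m F u' u = 0 := by rw [spB_swap u u', h0, neg_zero]
  let f : (Fin m ⊕ Fin m → F) →ₗ[F] (Fin m ⊕ Fin m → F) :=
    LinearMap.id - proj Jo u' u - proj Jo u u' + proj Jo u' u' + proj Jo u u
  have hf : ∀ x, f x =
      x - proj Jo u' u x - proj Jo u u' x + proj Jo u' u' x + proj Jo u u x := fun x => rfl
  have hiso : ∀ x y, sympBil m F (f x) (f y) = sympBil m F x y := by
    intro x y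
    simp only [hf, proj_apply, map_add, map_sub, map_smul, LinearMap.add_apply,
      LinearMap.sub_apply, LinearMap.smul_apply, smul_eq_mul, hJ.J_J, hJ.J_left, hu, hu',
      h0, h0', h1, h1', sympBil_isAlt.self_eq_zero, spB_swap y u, spB_swap y u',
      spB_swap y (Jo u), spB_swap y (Jo u')]
    ring
  have hfJ : ∀ x, f (Jo x) = Jo (f x) := by
    intro x
    simp only [hf, proj_apply, map_add, map_sub, map_smul, hJ.sq, hJ.J_J, hJ.skew]
    module
  obtain ⟨g, hgM, hgs, hg⟩ := exists_gl hO.commute f hiso hfJ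
  refine ⟨g, hgM, hgs, ?_⟩
  rw [hg, hf]
  simp [proj_apply, h0, h1, hu, sympBil_isAlt.self_eq_zero]

section finite

variable [Fintype F] (hm : 6 ≤ m)
include hm

/-- One transvection at a singular vector gives all of them. -/
lemma mem_centres_of_one {u : Fin m ⊕ Fin m → F} (hu0 : u ≠ 0)
    (hu : sympBil m F u (Jo u) = 0) {r : F} (hr : r ≠ 0) (h : spTau u r ∈ M) :
    u ∈ spCentres M := by
  obtain ⟨u', hu', h0, h1, -, -⟩ := hO.str.exists_partner (c := 0) hu0 hu
    (fun a b e => hu0 (by simpa using e)) (by simp) (by simp)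
  have hsq : ∀ a : F, spTau u (a * a * r) ∈ M := by
    intro a
    rcases eq_or_ne a 0 with rfl | ha
    · rw [zero_mul, zero_mul, spTau_zero']; exact one_mem M
    · obtain ⟨g, hgM, hgs, hgu, -⟩ := hO.exists_rot (c := 0) hu hu' h0 h1 (by simp) (by simp)
        (by simp) (by simp) (a := a) (b := 0) (by simpa using mul_ne_zero ha ha)
      have := mul_mem (mul_mem hgM h) (inv_mem hgM)
      rwa [conj_spTau hgs, hgu, zero_smul, add_zero, spTau_scale] at this
  intro c
  obtain ⟨a, b, hab⟩ := FiniteField.exists_root_sum_quadratic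
    (R := F) (f := Polynomial.X ^ 2) (g := Polynomial.X ^ 2 - Polynomial.C (c / r))
    (Polynomial.degree_X_pow 2) (by
      rw [Polynomial.degree_X_pow_sub_C (by norm_num)]; rfl)
    (FiniteField.odd_card_of_char_ne_two (fun e => hO.str.two (by
      have h := ringChar.Nat.cast_ringChar (R := F)
      rwa [e] at h)))
  simp only [Polynomial.eval_pow, Polynomial.eval_X, Polynomial.eval_sub, Polynomial.eval_C] at hab
  have e : c = a * a * r + b * b * r := by
    have h2 : a * a + b * b = c / r := by linear_combination hab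
    rw [← add_mul, h2, div_mul_cancel₀ _ hr]
  rw [e, spTau_add']
  exact mul_mem (hsq a) (hsq b)

/-- An overgroup sending a singular line to a non-line has a centre. -/
lemma exists_centre {g : GL (Fin m ⊕ Fin m) F} (hg : g ∈ M) {v : Fin m ⊕ Fin m → F}
    (hv : sympBil m F v (Jo v) = 0)
    (hnot : ¬ ∀ x ∈ Submodule.span F ({mat[g] *ᵥ Jo v, mat[g] *ᵥ v} : Set (Fin m ⊕ Fin m → F)),
      Jo x ∈ Submodule.span F ({mat[g] *ᵥ Jo v, mat[g] *ᵥ v} : Set (Fin m ⊕ Fin m → F))) :
    ∃ u, u ≠ 0 ∧ sympBil m F u (Jo u) = 0 ∧ u ∈ spCentres M := by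
  have hJ := hO.str
  have hgs := hO.le hg
  set a := mat[g] *ᵥ Jo v with ha
  set b := mat[g] *ᵥ v with hb
  set L := Submodule.span F ({a, b} : Set (Fin m ⊕ Fin m → F)) with hL
  have hba : sympBil m F b a = 0 := by rw [ha, hb, GeoClasses.mem_spGL_iff.1 hgs]; exact hv
  have hab : sympBil m F a b = 0 := by rw [spB_swap b a, hba, neg_zero]
  have hgrp : ∀ t, pair a b t (-(ν * t)) ∈ M := by
    intro t
    have := mul_mem (mul_mem hg (hO.root_mem hv t)) (inv_mem hg)
    rwa [conj_pair hgs] at this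
  have haL : a ∈ L := Submodule.subset_span (by simp)
  have hbL : b ∈ L := Submodule.subset_span (by simp)
  have hL0 : ∀ {w}, (∀ x ∈ L, sympBil m F x w = 0) ↔ sympBil m F a w = 0 ∧ sympBil m F b w = 0 := by
    intro w
    refine ⟨fun h => ⟨h a haL, h b hbL⟩, fun h x hx => ?_⟩
    obtain ⟨s, t, rfl⟩ := Submodule.mem_span_pair.1 hx
    simp [h.1, h.2]
  -- a singular vector `u ⊥ L` outside `L` with `Jo u` not orthogonal to `L`
  obtain ⟨u, huL, hu, hua, hub, hφ⟩ : ∃ u, u ∉ L ∧ sympBil m F u (Jo u) = 0 ∧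
      sympBil m F a u = 0 ∧ sympBil m F b u = 0 ∧
      (sympBil m F a (Jo u) ≠ 0 ∨ sympBil m F b (Jo u) ≠ 0) := by
    obtain ⟨e, he, heU, heq⟩ := hJ.exists_singular_perp hm (L ⊔ L.map Jo) (by
      have h1 := Submodule.finrank_sup_add_finrank_inf_eq L (L.map Jo)
      have h2 : finrank F (L.map Jo) ≤ finrank F L := Submodule.finrank_map_le Jo L
      have h3 : finrank F L ≤ 2 := by
        classical
        have h0 := finrank_span_finset_le_card (R := F) ({a, b} : Finset (Fin m ⊕ Fin m → F))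
        have := Finset.card_insert_le a ({b} : Finset (Fin m ⊕ Fin m → F))
        unfold Set.finrank at h0
        rw [Finset.card_singleton] at this
        rw [Finset.coe_pair] at h0
        rw [hL]
        omega
      omega)
    have hea : sympBil m F a e = 0 := he a (Submodule.mem_sup_left haL)
    have heb : sympBil m F b e = 0 := he b (Submodule.mem_sup_left hbL)
    have heJ : ∀ x ∈ L, sympBil m F x (Jo e) = 0 := by
      intro x hx
      rw [← neg_eq_zero, ← hJ.skew]
      exact he _ (Submodule.mem_sup_right (Submodule.mem_map_of_mem hx))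
    set W := LinearMap.BilinForm.orthogonal (sympBil m F) L with hW
    have hWo : LinearMap.BilinForm.orthogonal (sympBil m F) W = L := by
      rw [hW, LinearMap.BilinForm.orthogonal_orthogonal sympBil_nondegenerate spB_isRefl]
    obtain ⟨z, hz, hzne⟩ : ∃ z ∈ L, ∃ s ∈ W, sympBil m F s (Jo z) ≠ 0 := by
      by_contra hcon
      push Not at hcon
      refine hnot fun x hx => ?_
      rw [← hWo]
      exact fun s hs => hcon x hx s hs
    obtain ⟨x, hxW, h1, h2⟩ := exists_ne_zero_of_two (S := W)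
      (φ := (sympBil m F).flip (Jo z)) (ψ := (sympBil m F).flip (Jo e)) hzne (by
        by_contra hcon
        push Not at hcon
        have hmem : Jo e ∈ L := by
          rw [← hWo]
          exact fun s hs => hcon s hs
        apply heU
        refine Submodule.mem_sup_right ⟨ν⁻¹ • Jo e, L.smul_mem _ hmem, ?_⟩
        rw [map_smul, hJ.sq, smul_smul, inv_mul_cancel₀ hJ.nu_ne, one_smul])
    change sympBil m F x (Jo z) ≠ 0 at h1
    change sympBil m F x (Jo e) ≠ 0 at h2
    obtain ⟨k, hk⟩ : ∃ k, k = -(sympBil m F x (Jo x)) / (2 * sympBil m F x (Jo e)) := ⟨_, rfl⟩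
    have hxa : sympBil m F a x = 0 := hxW a haL
    have hxb : sympBil m F b x = 0 := hxW b hbL
    refine ⟨x + k • e, fun hmem => ?_, ?_, ?_, ?_, ?_⟩
    · have := heJ _ hmem
      rw [map_add, map_smul, LinearMap.add_apply, LinearMap.smul_apply, heq, smul_zero,
        add_zero] at this
      exact h2 this
    · rw [hJ.expand, heq, hk]
      have := hJ.two
      field_simp
      ring
    · rw [map_add, map_smul, hxa, hea, smul_zero, add_zero]
    · rw [map_add, map_smul, hxb, heb, smul_zero, add_zero]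
    · by_contra hcon
      push Not at hcon
      have h3 := (hL0.2 hcon) z hz
      rw [map_add, map_smul, map_add, map_smul, heJ z hz, smul_zero, add_zero] at h3
      rw [hJ.S_symm] at h1
      exact h1 h3
  have hu0 : u ≠ 0 := fun h => huL (h ▸ L.zero_mem)
  refine ⟨u, hu0, hu, ?_⟩
  obtain ⟨φa, hφa⟩ : ∃ p, p = sympBil m F a (Jo u) := ⟨_, rfl⟩
  obtain ⟨φb, hφb⟩ : ∃ p, p = sympBil m F b (Jo u) := ⟨_, rfl⟩
  obtain ⟨N, hN⟩ : ∃ p, p = φa * φa - ν * (φb * φb) := ⟨_, rfl⟩
  have hN0 : N ≠ 0 := hN ▸ hJ.norm_ne (by rw [hφa, hφb]; exact hφ)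
  obtain ⟨a₁, ha₁⟩ : ∃ p, p = φa • a - (ν * φb) • b := ⟨_, rfl⟩
  obtain ⟨c, hc⟩ : ∃ p, p = φb • a - φa • b := ⟨_, rfl⟩
  obtain ⟨b₁, hb₁⟩ : ∃ p, p = N⁻¹ • Jo u := ⟨_, rfl⟩
  have huJ : sympBil m F (Jo u) u = 0 := by rw [spB_swap u (Jo u), hu, neg_zero]
  have hau : sympBil m F a u = 0 := hua
  have hca₁ : sympBil m F c a₁ = 0 := by
    simp [ha₁, hc, hab, hba, sympBil_isAlt.self_eq_zero]
  have ha₁b₁ : sympBil m F a₁ b₁ = 1 := by
    rw [hb₁, map_smul, ha₁, map_sub, map_smul, map_smul, LinearMap.sub_apply,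
      LinearMap.smul_apply, LinearMap.smul_apply, ← hφa, ← hφb, smul_eq_mul, smul_eq_mul,
      smul_eq_mul, show φa * φa - ν * φb * φb = N by rw [hN]; ring, inv_mul_cancel₀ hN0]
  have hcu : sympBil m F c u = 0 := by simp [hc, hua, hub]
  have hcJu : sympBil m F c (Jo u) = 0 := by
    simp [hc, ← hφa, ← hφb]
    ring
  have hcb₁ : sympBil m F c b₁ = 0 := by rw [hb₁, map_smul, hcJu, smul_zero]
  have ha₁u : sympBil m F a₁ u = 0 := by simp [ha₁, hua, hub]
  have hb₁u : sympBil m F b₁ u = 0 := by simp [hb₁, huJ]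
  -- the braid
  have hz : ∀ s : F, s ≠ 0 → pair c u (-(ν * s)) (ν / (N * N * s)) ∈ M := by
    intro s hs
    have hx : pair a₁ c s (-(ν * s)) ∈ M := by
      convert hgrp (N * s) using 1
      refine gl_ext_mulVec fun x => ?_
      rw [pair_apply (by rw [spB_swap c a₁, hca₁, neg_zero]), pair_apply hab, ha₁, hc]
      simp only [map_sub, map_smul, smul_eq_mul, hN]
      module
    have hy : pair b₁ u s⁻¹ (-(ν / (N * N * s))) ∈ M := by
      convert hO.root_mem hu ((N * N * s)⁻¹) using 1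
      rw [pair, pair, hb₁, spTau_scale, div_eq_mul_inv]
      congr 2 <;> simp only [mul_inv] <;> ring
    obtain ⟨A, hA⟩ : ∃ A, A = spTau a₁ s := ⟨_, rfl⟩
    obtain ⟨B, hB⟩ : ∃ B, B = spTau b₁ s⁻¹ := ⟨_, rfl⟩
    obtain ⟨C, hC⟩ : ∃ C, C = spTau c (-(ν * s)) := ⟨_, rfl⟩
    obtain ⟨D, hD⟩ : ∃ D, D = spTau u (-(ν / (N * N * s))) := ⟨_, rfl⟩
    have hCA : Commute C A := hC ▸ hA ▸ spTau_comm hca₁ _ _
    have hCB : Commute C B := hC ▸ hB ▸ spTau_comm hcb₁ _ _
    have hDA : Commute D A := hD ▸ hA ▸ (spTau_comm ha₁u _ _).symm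
    have hDB : Commute D B := hD ▸ hB ▸ (spTau_comm hb₁u _ _).symm
    have hCD : Commute C D := hC ▸ hD ▸ spTau_comm hcu _ _
    have hbr : A * B * A = B * A * B := hA ▸ hB ▸ spTau_braid ha₁b₁ (mul_inv_cancel₀ hs)
    have hxM : A * C ∈ M := hA ▸ hC ▸ hx
    have hyM : B * D ∈ M := hB ▸ hD ▸ hy
    have e : A * C * (B * D) * (A * C) * (B * D * (A * C) * (B * D))⁻¹ = C * D⁻¹ := by
      have l : A * C * (B * D) * (A * C) = A * B * A * (C * C * D) := by
        calc _ = A * (C * B) * D * A * C := by group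
          _ = A * B * (C * (D * A)) * C := by rw [hCB.eq]; group
          _ = A * B * (C * A) * D * C := by rw [hDA.eq]; group
          _ = A * B * A * (C * (D * C)) := by rw [hCA.eq]; group
          _ = _ := by rw [← hCD.eq]; group
      have r : B * D * (A * C) * (B * D) = B * A * B * (C * D * D) := by
        calc _ = B * (D * A) * C * B * D := by group
          _ = B * A * (D * (C * B)) * D := by rw [hDA.eq]; group
          _ = B * A * (D * B) * C * D := by rw [hCB.eq]; group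
          _ = B * A * B * (D * C) * D := by rw [hDB.eq]; group
          _ = _ := by rw [← hCD.eq]; group
      rw [l, r, ← hbr]
      calc _ = A * B * A * (C * C * D * D⁻¹ * D⁻¹ * C⁻¹) * (A * B * A)⁻¹ := by group
        _ = A * B * A * (C * (C * D⁻¹) * C⁻¹) * (A * B * A)⁻¹ := by group
        _ = A * B * A * (C * D⁻¹) * (A * B * A)⁻¹ := by
          rw [((Commute.refl C).mul_right hCD.inv_right).eq]; group
        _ = C * D⁻¹ := by
          have h1 : Commute (A * B * A) (C * D⁻¹) :=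
            ((hCA.symm.mul_right hDA.symm.inv_right).mul_left
              (hCB.symm.mul_right hDB.symm.inv_right)).mul_left
              (hCA.symm.mul_right hDA.symm.inv_right)
          rw [h1.eq]; group
    have hmem : C * D⁻¹ ∈ M :=
      e ▸ mul_mem (mul_mem (mul_mem hxM hyM) hxM) (inv_mem (mul_mem (mul_mem hyM hxM) hyM))
    have hDi : D⁻¹ = spTau u (ν / (N * N * s)) := by
      rw [hD]
      refine inv_eq_of_mul_eq_one_right ?_
      rw [← spTau_add', neg_add_cancel, spTau_zero']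
    rw [pair, ← hC, ← hDi]
    exact hmem
  -- move `u` to `Jo u` fixing `c`
  obtain ⟨u', hu', h0, h1, hc3, hc4⟩ := hJ.exists_partner hu0 hu (c := c) (by
    intro p q e
    have hcL : c ∈ L := hc ▸ L.sub_mem (L.smul_mem _ haL) (L.smul_mem _ hbL)
    rcases eq_or_ne q 0 with rfl | hq
    · exact huL (by simpa [e] using L.smul_mem p hcL)
    · have hcl : ∀ x ∈ L, sympBil m F x c = 0 := hL0.2 ⟨by simp [hc, hab, sympBil_isAlt.self_eq_zero],
        by simp [hc, hba, sympBil_isAlt.self_eq_zero]⟩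
      have h1 : ∀ x ∈ L, sympBil m F x (Jo u) = 0 := by
        intro x hx
        have h := hL0.2 ⟨hua, hub⟩ x hx
        rw [e, map_add, map_smul, map_smul, hcl x hx, smul_zero, zero_add, smul_eq_mul,
          mul_eq_zero, or_iff_right hq] at h
        rw [e, map_add, map_smul, map_smul, map_add, map_smul, map_smul, hJ.sq, map_smul, h,
          hcl x hx, smul_zero, smul_zero, smul_zero, add_zero]
      rcases hφ with h | h
      · exact h (h1 a haL)
      · exact h (h1 b hbL)) hcu hcJu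
  obtain ⟨n, hnM, hns, hnu, hnc⟩ := hO.exists_rot hu hu' h0 h1 hcu hcJu hc3 hc4 (a := 0) (b := 1)
    (by simpa using hJ.nu_ne)
  rw [zero_smul, zero_add, one_smul] at hnu
  obtain ⟨r, hr⟩ : ∃ r, r = ν / (N * N) := ⟨_, rfl⟩
  have h1m : spTau c (-ν) * spTau u r ∈ M := by
    have := hz 1 one_ne_zero
    rwa [mul_one, mul_one, ← hr] at this
  have h2m : spTau c (-ν) * spTau (Jo u) r ∈ M := by
    have := mul_mem (mul_mem hnM h1m) (inv_mem hnM)
    rwa [← pair, conj_pair hns, hnc, hnu] at this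
  have h3m : spTau (Jo u) r * spTau u (-(ν * r)) ∈ M := hO.root_mem hu r
  have h4 : (spTau (Jo u) r * spTau u (-(ν * r)))⁻¹ *
      ((spTau c (-ν) * spTau u r)⁻¹ * (spTau c (-ν) * spTau (Jo u) r)) =
      spTau u (r * (ν - 1)) := by
    have hcomm := spTau_comm (F := F) huJ r (-r)
    have i1 : (spTau u r)⁻¹ = spTau u (-r) :=
      inv_eq_of_mul_eq_one_right (by rw [← spTau_add', add_neg_cancel, spTau_zero'])
    have i2 : (spTau u (-(ν * r)))⁻¹ = spTau u (ν * r) :=
      inv_eq_of_mul_eq_one_right (by rw [← spTau_add', neg_add_cancel, spTau_zero'])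
    rw [_root_.mul_inv_rev, _root_.mul_inv_rev, i1, i2]
    calc _ = spTau u (ν * r) * (spTau (Jo u) r)⁻¹ * (spTau u (-r) * spTau (Jo u) r) := by group
      _ = spTau u (ν * r) * spTau u (-r) := by rw [← hcomm.eq]; group
      _ = _ := by rw [← spTau_add']; congr 1; ring
  refine hO.mem_centres_of_one hm hu0 hu (r := r * (ν - 1))
    (mul_ne_zero (hr ▸ div_ne_zero hJ.nu_ne (mul_ne_zero hN0 hN0)) hJ.one_sub_ne) ?_
  rw [← h4]
  exact mul_mem (inv_mem h3m) (mul_mem (inv_mem h1m) h2m)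

/-- A singular centre spreads to everything. -/
lemma all_centres {u : Fin m ⊕ Fin m → F} (hu0 : u ≠ 0) (hu : sympBil m F u (Jo u) = 0)
    (hc : u ∈ spCentres M) : ∀ v, v ∈ spCentres M := by
  have hJ := hO.str
  have step : ∀ {u y : Fin m ⊕ Fin m → F}, sympBil m F u (Jo u) = 0 → u ∈ spCentres M →
      sympBil m F y (Jo y) = 0 → sympBil m F y u ≠ 0 → y ∈ spCentres M := by
    intro u y hu hc hy hyu
    have hu0 : u ≠ 0 := fun h => hyu (by simp [h])
    obtain ⟨u', hu', h0, h1, -, -⟩ := hJ.exists_partner (c := 0) hu0 hu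
      (fun a b e => hu0 (by simpa using e)) (by simp) (by simp)
    obtain ⟨B, hB⟩ : ∃ B, B = sympBil m F u y := ⟨_, rfl⟩
    obtain ⟨T, hT⟩ : ∃ T, T = sympBil m F u (Jo y) := ⟨_, rfl⟩
    have hB0 : B ≠ 0 := by rw [hB, spB_swap y u]; exact neg_ne_zero.2 hyu
    obtain ⟨D, hD⟩ : ∃ D, D = T * T - ν * (B * B) := ⟨_, rfl⟩
    have hD0 : D ≠ 0 := hD ▸ hJ.norm_ne (Or.inr hB0)
    obtain ⟨g, hgM, hgs, hgu, -⟩ := hO.exists_rot (c := 0) hu hu' h0 h1 (by simp) (by simp)
      (by simp) (by simp) (a := T / D) (b := B / D)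
      (hJ.norm_ne (Or.inr (div_ne_zero hB0 hD0)))
    obtain ⟨w, hw⟩ : ∃ w, w = (T / D) • u + (B / D) • Jo u := ⟨_, rfl⟩
    have hwc : w ∈ spCentres M := by
      rw [hw, ← hgu]
      exact mulVec_mem_spCentres hc hgM hgs
    have h2 : sympBil m F (Jo u) y = -T := by rw [hJ.skew, hT]
    have h3 : sympBil m F (Jo u) (Jo y) = -ν * B := by rw [hJ.J_J, hB]
    have hwy0 : sympBil m F w y = 0 := by
      rw [hw, map_add, map_smul, map_smul, LinearMap.add_apply, LinearMap.smul_apply,
        LinearMap.smul_apply, h2, ← hB, smul_eq_mul, smul_eq_mul]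
      ring
    have hwy1 : sympBil m F w (Jo y) = 1 := by
      rw [hw, map_add, map_smul, map_smul, LinearMap.add_apply, LinearMap.smul_apply,
        LinearMap.smul_apply, h3, ← hT, smul_eq_mul, smul_eq_mul]
      field_simp
      rw [hD]
      ring
    have hwq : sympBil m F w (Jo w) = 0 := by
      rw [hw]
      simp [hJ.sq, hJ.J_J, hu, hJ.J_left, sympBil_isAlt.self_eq_zero]
    obtain ⟨s, hsM, hss, hsw⟩ := hO.exists_swap hwq hy hwy0 hwy1
    rw [← hsw]
    exact mulVec_mem_spCentres hwc hsM hss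
  have hsing : ∀ y, y ≠ 0 → sympBil m F y (Jo y) = 0 → y ∈ spCentres M := by
    intro y hy0 hy
    obtain ⟨p, hp, hpu, hpy⟩ := hJ.exists_singular_two hm hu0 hy0
    exact step hp (step hu hc hp hpu) hy (by rw [spB_swap p y]; exact neg_ne_zero.2 hpy)
  intro v
  rcases eq_or_ne v 0 with rfl | hv0
  · intro c
    rw [show spTau (0 : Fin m ⊕ Fin m → F) c = 1 from gl_ext_mulVec fun x => by simp [spTau_apply]]
    exact one_mem M
  by_cases hq : sympBil m F v (Jo v) = 0
  · exact hsing v hv0 hq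
  obtain ⟨p, hp, hpv, hpJv⟩ := hJ.exists_singular_two hm hv0 (hJ.J_ne hv0)
  obtain ⟨k, hk⟩ : ∃ k, k = sympBil m F v (Jo v) / (2 * sympBil m F p (Jo v)) := ⟨_, rfl⟩
  have hk0 : k ≠ 0 := hk ▸ div_ne_zero hq (mul_ne_zero hJ.two hpJv)
  have hr : sympBil m F (v + -k • p) (Jo (v + -k • p)) = 0 := by
    rw [hJ.expand, hp, hJ.S_symm v p, hk]
    have := hJ.two
    field_simp
    ring
  have hp0 : p ≠ 0 := fun h => hpv (by simp [h])
  have hr0 : v + -k • p ≠ 0 := fun h => by
    apply hq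
    have e : v = k • p := by linear_combination (norm := module) h
    simp [e, hp]
  have := plane_mem_spCentres (hsing p hp0 hp) (hsing _ hr0 hr)
    (by simpa [map_add, map_smul, sympBil_isAlt.self_eq_zero] using hpv) k 1
  simpa [one_smul] using this

/-- A map preserving all singular lines is a scalar of the overfield. -/
lemma eq_scalar_of_lines (T : (Fin m ⊕ Fin m → F) →ₗ[F] (Fin m ⊕ Fin m → F))
    (hT : ∀ v, sympBil m F v (Jo v) = 0 → ∃ a b : F, T v = a • v + b • Jo v) :
    ∃ a b : F, ∀ v, T v = a • v + b • Jo v := by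
  have hJ := hO.str
  have same : ∀ {v w : Fin m ⊕ Fin m → F} {a b c d : F}, v ≠ 0 →
      sympBil m F v (Jo v) = 0 → sympBil m F w (Jo w) = 0 → sympBil m F v (Jo w) = 0 →
      (∀ x y : F, w ≠ x • v + y • Jo v) → T v = a • v + b • Jo v → T w = c • w + d • Jo w →
      a = c ∧ b = d := by
    intro v w a b c d hv0 hv hw hvw hind hTv hTw
    have hvw1 : sympBil m F (v + (1 : F) • w) (Jo (v + (1 : F) • w)) = 0 := by
      rw [hJ.expand, hv, hw, hvw]; ring
    obtain ⟨e, f, hef⟩ := hT _ hvw1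
    rw [one_smul, map_add, hTv, hTw, map_add] at hef
    have h2 : (c - e) • w + (d - f) • Jo w = (e - a) • v + (f - b) • Jo v := by
      linear_combination (norm := module) hef
    by_cases hcd : c - e = 0 ∧ d - f = 0
    · rw [hcd.1, hcd.2, zero_smul, zero_smul, zero_add] at h2
      by_cases hab : e - a = 0 ∧ f - b = 0
      · exact ⟨by linear_combination -hab.1 - hcd.1, by linear_combination -hab.2 - hcd.2⟩
      · exfalso
        have hN := hJ.norm_ne (a := e - a) (b := f - b) (by tauto)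
        have h3 := congrArg Jo h2
        rw [map_zero, map_add, map_smul, map_smul, hJ.sq] at h3
        have h4 : ((e - a) * (e - a) - ν * ((f - b) * (f - b))) • v = 0 := by
          linear_combination (norm := module) (f - b) • h3 - (e - a) • h2
        exact hv0 ((smul_eq_zero.1 h4).resolve_left hN)
    · exfalso
      obtain ⟨p, hp⟩ : ∃ p, p = c - e := ⟨_, rfl⟩
      obtain ⟨q, hq⟩ : ∃ q, q = d - f := ⟨_, rfl⟩
      obtain ⟨s, hs⟩ : ∃ s, s = e - a := ⟨_, rfl⟩
      obtain ⟨t, ht⟩ : ∃ t, t = f - b := ⟨_, rfl⟩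
      rw [← hp, ← hq, ← hs, ← ht] at h2
      rw [← hp, ← hq] at hcd
      have hN := hJ.norm_ne (a := p) (b := q) (by tauto)
      have h3 := congrArg Jo h2
      rw [map_add, map_add, map_smul, map_smul, map_smul, map_smul, hJ.sq, hJ.sq] at h3
      have h4 : (p * p - ν * (q * q)) • w =
          (p * s - q * t * ν) • v + (p * t - q * s) • Jo v := by
        linear_combination (norm := module) p • h2 - q • h3
      refine hind ((p * s - q * t * ν) / (p * p - ν * (q * q)))
        ((p * t - q * s) / (p * p - ν * (q * q))) ?_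
      have h5 := congrArg (fun z => (p * p - ν * (q * q))⁻¹ • z) h4
      simp only [smul_smul, inv_mul_cancel₀ hN, one_smul, smul_add] at h5
      rw [div_eq_inv_mul, div_eq_inv_mul]
      exact h5
  obtain ⟨e, -, he0, hes⟩ := hJ.exists_singular_perp hm ⊥ (by simp)
  obtain ⟨a, b, hab⟩ := hT e hes
  have hall : ∀ v, sympBil m F v (Jo v) = 0 → T v = a • v + b • Jo v := by
    intro v hv
    rcases eq_or_ne v 0 with rfl | hv0
    · simp
    have hene : e ≠ 0 := fun h => he0 (by simp [h])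
    obtain ⟨z, hz, hzU, hzq⟩ := hJ.exists_singular_perp hm
      (Submodule.span F ({e, Jo e, v, Jo v} : Set (Fin m ⊕ Fin m → F))) (by
        classical
        have e' : ({e, Jo e, v, Jo v} : Set (Fin m ⊕ Fin m → F)) =
            (({e, Jo e, v, Jo v} : Finset (Fin m ⊕ Fin m → F)) : Set _) := by simp
        rw [e']
        have h0 := finrank_span_finset_le_card (R := F)
          ({e, Jo e, v, Jo v} : Finset (Fin m ⊕ Fin m → F))
        have h1 := Finset.card_insert_le e ({Jo e, v, Jo v} : Finset (Fin m ⊕ Fin m → F))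
        have h2 := Finset.card_insert_le (Jo e) ({v, Jo v} : Finset (Fin m ⊕ Fin m → F))
        have h3 := Finset.card_insert_le v ({Jo v} : Finset (Fin m ⊕ Fin m → F))
        rw [Finset.card_singleton] at h3
        unfold Set.finrank at h0
        omega)
    have hz' : ∀ w ∈ ({e, Jo e, v, Jo v} : Set (Fin m ⊕ Fin m → F)), sympBil m F w z = 0 :=
      fun w hw => hz w (Submodule.subset_span hw)
    obtain ⟨p, q, hpq⟩ := hT z hzq
    have i1 := same hene hes hzq
      (by rw [← neg_eq_zero, ← hJ.skew]; exact hz' _ (by simp))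
      (fun x y h => hzU (h ▸ add_mem (Submodule.smul_mem _ _ (Submodule.subset_span (by simp)))
        (Submodule.smul_mem _ _ (Submodule.subset_span (by simp))))) hab hpq
    obtain ⟨c, d, hcd⟩ := hT v hv
    have i2 := same hv0 hv hzq
      (by rw [← neg_eq_zero, ← hJ.skew]; exact hz' _ (by simp))
      (fun x y h => hzU (h ▸ add_mem (Submodule.smul_mem _ _ (Submodule.subset_span (by simp)))
        (Submodule.smul_mem _ _ (Submodule.subset_span (by simp))))) hcd hpq
    rw [hcd, i1.1, i1.2, i2.1, i2.2]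
  refine ⟨a, b, fun v => ?_⟩
  rcases eq_or_ne v 0 with rfl | hv0
  · simp
  by_cases hq : sympBil m F v (Jo v) = 0
  · exact hall v hq
  obtain ⟨p, hp, -, hpJv⟩ := hJ.exists_singular_two hm hv0 (hJ.J_ne hv0)
  obtain ⟨k, hk⟩ : ∃ k, k = sympBil m F v (Jo v) / (2 * sympBil m F p (Jo v)) := ⟨_, rfl⟩
  have hr : sympBil m F (v + -k • p) (Jo (v + -k • p)) = 0 := by
    rw [hJ.expand, hp, hJ.S_symm v p, hk]
    have := hJ.two
    field_simp
    ring
  have h1 := hall _ hr
  rw [map_add, map_smul, hall p hp, map_add, map_smul] at h1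
  linear_combination (norm := module) h1

/-- An element outside the normaliser forces everything. -/
theorem eq_spGL {g : GL (Fin m ⊕ Fin m) F} (hg : g ∈ M)
    (hout : ¬ ∃ ε : F, (ε = 1 ∨ ε = -1) ∧ ∀ x, mat[g] *ᵥ Jo x = ε • Jo (mat[g] *ᵥ x)) :
    M = Cfsg.spGL m F := by
  have hJ := hO.str
  by_cases hall : ∀ v, sympBil m F v (Jo v) = 0 →
      ∀ x ∈ Submodule.span F ({mat[g] *ᵥ Jo v, mat[g] *ᵥ v} : Set (Fin m ⊕ Fin m → F)),
        Jo x ∈ Submodule.span F ({mat[g] *ᵥ Jo v, mat[g] *ᵥ v} : Set (Fin m ⊕ Fin m → F))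
  swap
  · push Not at hall
    obtain ⟨v, hv, x, hx, hx'⟩ := hall
    obtain ⟨u, hu0, hu, huc⟩ := hO.exists_centre hm hg hv fun h => hx' (h x hx)
    exact le_antisymm hO.le (spGL_le_of_spTau_mem fun w c => hO.all_centres hm hu0 hu huc w c)
  exfalso
  let T : (Fin m ⊕ Fin m → F) →ₗ[F] (Fin m ⊕ Fin m → F) :=
    Matrix.toLin' mat[g⁻¹] ∘ₗ Jo ∘ₗ Matrix.toLin' mat[g]
  have hTap : ∀ v, mat[g] *ᵥ T v = Jo (mat[g] *ᵥ v) := fun v => by
    show mat[g] *ᵥ (mat[g⁻¹] *ᵥ Jo (mat[g] *ᵥ v)) = _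
    rw [mulVec_inv_cancel]
  obtain ⟨a, b, hab⟩ := hO.eq_scalar_of_lines hm T fun v hv => by
    obtain ⟨s, t, hst⟩ := Submodule.mem_span_pair.1
      (hall v hv _ (Submodule.subset_span (by simp : mat[g] *ᵥ v ∈ _)))
    refine ⟨t, s, GeoClasses.mulVec_injective g ?_⟩
    show mat[g] *ᵥ T v = mat[g] *ᵥ _
    rw [hTap, ← hst, Matrix.mulVec_add, Matrix.mulVec_smul, Matrix.mulVec_smul]
    abel
  obtain ⟨x₀, hx₀⟩ := exists_ne_zero_vec (F := F) (m := m) (by omega)
  obtain ⟨p, -, hp, -⟩ := hJ.exists_singular_two hm hx₀ hx₀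
  have hgg : ∀ x, Jo (Jo (mat[g] *ᵥ x)) = mat[g] *ᵥ T (T x) := fun x => by rw [hTap, hTap]
  have h := hgg x₀
  rw [hJ.sq, ← Matrix.mulVec_smul] at h
  have h' := GeoClasses.mulVec_injective g h
  rw [hab (T x₀), hab x₀, map_add, map_smul, map_smul, hJ.sq] at h'
  have hind : ∀ p q : F, p • x₀ + q • Jo x₀ = 0 → p = 0 ∧ q = 0 := by
    intro p q hpq
    by_contra hne
    have hN := hJ.norm_ne (a := p) (b := q) (by tauto)
    have h3 := congrArg Jo hpq
    rw [map_add, map_smul, map_smul, hJ.sq, map_zero] at h3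
    have h4 : (p * p - ν * (q * q)) • x₀ = 0 := by
      linear_combination (norm := module) p • hpq - q • h3
    exact hx₀ ((smul_eq_zero.1 h4).resolve_left hN)
  obtain ⟨e1, e2⟩ := hind (a * a + b * b * ν - ν) (2 * (a * b)) (by
    linear_combination (norm := module) (-1 : F) • h')
  have hab0 : a * b = 0 := (mul_eq_zero.1 e2).resolve_left hJ.two
  have ha : a = 0 := by
    rcases mul_eq_zero.1 hab0 with h | h
    · exact h
    · exact absurd (by rw [h] at e1; linear_combination e1 : a * a = ν) (hJ.nsq a)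
  subst ha
  have hb : b * b = 1 := by
    have : (b * b - 1) * ν = 0 := by linear_combination e1
    exact sub_eq_zero.1 ((mul_eq_zero.1 this).resolve_right hJ.nu_ne)
  apply hout
  refine ⟨b, mul_self_eq_one_iff.1 hb, fun x => ?_⟩
  have h5 := hTap x
  rw [hab, zero_smul, zero_add, Matrix.mulVec_smul] at h5
  rw [← h5, smul_smul, hb, one_smul]

end finite

end Over

end Cfsg.Agent.MaxSub.Overfield
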