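import Cfsg.Agent.MaxSub.Overfield.Main
import Cfsg.Agent.MaxSub.FieldSub
import Cfsg.Agent.Elusive.FieldExtUnit

/-!
The normaliser of a skew quadratic overfield is maximal in the symplectic group, dimension at least
twelve.
-/

set_option autoImplicit false
open Cfsg Cfsg.Agent.GeoClasses Cfsg.Agent.ClassicalMax Cfsg.Agent.Forms
open scoped MatrixGroups Matrix

namespace Cfsg.Agent.MaxSub.Overfield

open Cfsg.Agent

/-- The unitary overfield stabilisers are maximal in the symplectic group. -/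
theorem spGL_overfield_maximal {F : Type*} [Field F] [Fintype F] {m : ℕ} (hm : 6 ≤ m) (hodd : Odd (Fintype.card F)) (K : Subalgebra F (Matrix (Fin m ⊕ Fin m) (Fin m ⊕ Fin m) F)) (hK : Cfsg.Geo.IsFieldSubalgebra 2 K) (hac : Cfsg.Geo.IsAdjointClosedFor (Cfsg.sympForm m F) K) (hnsa : ¬ Cfsg.Geo.IsSelfAdjointFor (Cfsg.sympForm m F) K) : Cfsg.Geo.IsMaximalIn (Cfsg.spGL m F) (Cfsg.Geo.subalgebraNormalizer K ⊓ Cfsg.spGL m F) := by
  classical
  have h2 : (2 : F) ≠ 0 := GeoClasses.two_ne_zero_iff_odd_card.2 hodd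
  have : Nonempty (Fin m ⊕ Fin m) := ⟨Sum.inl ⟨0, by omega⟩⟩
  obtain ⟨a, ν, haK, ha2, hns, hskew, hspan⟩ := Elusive.exists_skew_element h2 hK hac hnsa
  let Jo : (Fin m ⊕ Fin m → F) →ₗ[F] (Fin m ⊕ Fin m → F) := Matrix.toLin' a
  have hJo : ∀ x, Jo x = a *ᵥ x := fun x => Matrix.toLin'_apply a x
  have hJ : MaxSub.Overfield.Str Jo ν :=
    ⟨h2, hns, fun x => by
      rw [hJo, hJo, Matrix.mulVec_mulVec, ha2, Matrix.smul_mulVec, Matrix.one_mulVec],
      fun x y => by rw [hJo, hJo]; exact hskew x y⟩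
  -- semilinear maps normalise `K`
  have hnorm : ∀ (g : GL (Fin m ⊕ Fin m) F) (ε : F),
      (∀ x, (g : Matrix (Fin m ⊕ Fin m) (Fin m ⊕ Fin m) F) *ᵥ Jo x =
        ε • Jo ((g : Matrix (Fin m ⊕ Fin m) (Fin m ⊕ Fin m) F) *ᵥ x)) →
      g ∈ Cfsg.Geo.subalgebraNormalizer K := by
    intro g ε hg
    have hmat : (g : Matrix (Fin m ⊕ Fin m) (Fin m ⊕ Fin m) F) * a = ε • (a * g) := by
      refine Matrix.toLin'.injective (LinearMap.ext fun x => ?_)
      rw [Matrix.toLin'_apply, Matrix.toLin'_apply, Matrix.smul_mulVec, ← Matrix.mulVec_mulVec,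
        ← Matrix.mulVec_mulVec, ← hJo, ← hJo]
      exact hg x
    refine MaxSub.mem_normalizer_iff_map_le.2 fun k hk => ?_
    obtain ⟨s, t, rfl⟩ := hspan k hk
    have e : (g : Matrix (Fin m ⊕ Fin m) (Fin m ⊕ Fin m) F) * (s • 1 + t • a) *
        ((g⁻¹ : GL (Fin m ⊕ Fin m) F) : Matrix (Fin m ⊕ Fin m) (Fin m ⊕ Fin m) F) =
        s • 1 + (t * ε) • a := by
      rw [mul_add, add_mul, Matrix.mul_smul, Matrix.mul_smul, mul_one, hmat, smul_smul,
        Matrix.smul_mul, Matrix.smul_mul, mul_assoc a, Units.mul_inv, mul_one]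
    rw [e]
    exact add_mem (K.smul_mem K.one_mem s) (K.smul_mem haK _)
  refine ⟨lt_of_le_of_ne inf_le_right fun hEq => ?_, fun M hHM hMS => ?_⟩
  · obtain ⟨v, hv⟩ := ClassicalMax.exists_ne_zero_vec (F := F) (m := m) (by omega)
    have hmem : spTau v (1 : F) ∈ Cfsg.Geo.subalgebraNormalizer K :=
      (hEq.symm ▸ spTau_mem v (1 : F) :
        spTau v (1 : F) ∈ Cfsg.Geo.subalgebraNormalizer K ⊓ Cfsg.spGL m F).1
    have hk := (hmem a).1 haK
    obtain ⟨s, t, hst⟩ := hspan _ hk
    have hst' : ∀ x : Fin m ⊕ Fin m → F, a *ᵥ x + sympBil m F (a *ᵥ x) v • v =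
        s • (x + sympBil m F x v • v) + t • (a *ᵥ x + sympBil m F x v • (a *ᵥ v)) := by
      intro x
      have h' := congrArg (fun A => A * (spTau v (1 : F) : Matrix (Fin m ⊕ Fin m) (Fin m ⊕ Fin m) F)) hst
      simp only [mul_assoc, Units.inv_mul, mul_one, add_mul, Matrix.smul_mul, one_mul] at h'
      have h'' := congrArg (fun A => A *ᵥ x) h'
      simpa only [Matrix.add_mulVec, Matrix.smul_mulVec, ← Matrix.mulVec_mulVec,
        GeoClasses.spTau_apply, one_mul, Matrix.mulVec_add, Matrix.mulVec_smul] using h''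
    have hind : ∀ (x : Fin m ⊕ Fin m → F) (p q : F), x ≠ 0 → p • x + q • Jo x = 0 → p = 0 ∧ q = 0 := by
      intro x p q hx hpq
      by_contra hne
      have hN := hJ.norm_ne (a := p) (b := q) (by tauto)
      have h3 := congrArg Jo hpq
      rw [map_add, map_smul, map_smul, hJ.sq, map_zero] at h3
      have h4 : (p * p - ν * (q * q)) • x = 0 := by
        linear_combination (norm := module) p • hpq - q • h3
      exact hx ((smul_eq_zero.1 h4).resolve_left hN)
    obtain ⟨e, he, heU, -⟩ := hJ.exists_singular_perp (by omega)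
      (Submodule.span F ({v, Jo v} : Set (Fin m ⊕ Fin m → F))) (by
        have h0 := finrank_span_finset_le_card (R := F) ({v, Jo v} : Finset (Fin m ⊕ Fin m → F))
        have h1 := Finset.card_le_two (a := v) (b := Jo v)
        unfold Set.finrank at h0
        rw [Finset.coe_pair] at h0
        omega)
    have he0 : e ≠ 0 := fun h => heU (h ▸ zero_mem _)
    have hev : sympBil m F e v = 0 := by
      rw [GeoClasses.spB_swap v e, he v (Submodule.subset_span (by simp)), neg_zero]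
    have haev : sympBil m F (a *ᵥ e) v = 0 := by
      rw [← hJo, hJ.skew, GeoClasses.spB_swap (Jo v) e,
        he (Jo v) (Submodule.subset_span (by simp)), neg_zero, neg_zero]
    have h1 := hst' e
    rw [hev, haev] at h1
    obtain ⟨hs, ht⟩ := hind e s (t - 1) he0 (by
      rw [hJo]; linear_combination (norm := module) (-1 : F) • h1)
    obtain ⟨x, hx⟩ : ∃ x, sympBil m F x v ≠ 0 := by
      by_contra hc
      push Not at hc
      exact hv (sympBil_nondegenerate.2 v hc)
    have h2' := hst' x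
    rw [hs, sub_eq_zero.1 ht] at h2'
    exact hx (by
      have := (hind v (sympBil m F (a *ᵥ x) v) (- sympBil m F x v) hv (by
        rw [hJo]; linear_combination (norm := module) h2')).2
      exact neg_eq_zero.1 this)
  · by_cases hM : M ≤ Cfsg.Geo.subalgebraNormalizer K ⊓ Cfsg.spGL m F
    · exact Or.inl (le_antisymm hM hHM)
    · obtain ⟨g, hgM, hgH⟩ := SetLike.not_le_iff_exists.1 hM
      have hO : MaxSub.Overfield.Over Jo ν M :=
        ⟨hJ, hMS, fun h hh hc => hHM ⟨hnorm h 1 fun x => by rw [one_smul]; exact hc x, hh⟩⟩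
      exact Or.inr (hO.eq_spGL (by omega) hgM fun ⟨ε, _, hε⟩ => hgH ⟨hnorm g ε hε, hMS hgM⟩)

end Cfsg.Agent.MaxSub.Overfield
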